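import Cfsg.Agent.GeoClasses.OrthNondegApp
import Cfsg.Agent.GeoClasses.OrthPoint
import Cfsg.Agent.DecompMax.FrameMax
import Cfsg.Agent.DecompMax.OrthMat
import Cfsg.Agent.DecompMax.PlaneMat
import Cfsg.Agent.Classical.OrthForms

/-!
Clauses common to the geometric lists of the orthogonal groups of dimensions ten and twelve.
-/

set_option autoImplicit false

namespace Cfsg.Agent.GeoLists

open Module Cfsg.Geo

variable {F : Type*} [Field F] [Fintype F] {ι : Type} [Fintype ι] [DecidableEq ι]
variable {Q : (ι → F) → F}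

/-- Odd-dimensional non-degenerate subspaces. -/
theorem odd_nondeg_maximal (hQ : IsNondegenerateQuadraticForm Q) (hn : 10 ≤ Fintype.card ι)
    (hev : Even (Fintype.card ι)) {W : Submodule F (ι → F)} (hW0 : W ≠ ⊥) (hW1 : W ≠ ⊤)
    (hodd : Odd (finrank F W)) (hhalf : 2 * finrank F W ≠ Fintype.card ι)
    (hW : IsNondegenerateOn (QuadraticMap.polar Q) W) :
    IsMaximalIn (omegaGL Q) (subspaceStabilizer W ⊓ omegaGL Q) := by
  refine GeoClasses.omegaGL_nondeg_maximal hQ hn hW0 hW1 hW (Or.inl hhalf) ?_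
  obtain ⟨a, ha⟩ := hev
  obtain ⟨b, hb⟩ := hodd
  rintro ⟨-, U, hU, -, -, rfl | ⟨-, hUW⟩⟩ <;> omega

/-- Non-degenerate planes. -/
theorem plane_maximal (hQ : IsNondegenerateQuadraticForm Q) (hn : 10 ≤ Fintype.card ι)
    {W : Submodule F (ι → F)} (h2 : finrank F W = 2)
    (hW : IsNondegenerateOn (QuadraticMap.polar Q) W)
    (hq : ¬ IsPlusTypeOn Q W ∨ 4 ≤ Fintype.card F) :
    IsMaximalIn (omegaGL Q) (subspaceStabilizer W ⊓ omegaGL Q) := by
  refine GeoClasses.omegaGL_nondeg_maximal hQ hn ?_ ?_ hW (Or.inl (by omega)) ?_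
  · rintro rfl; rw [finrank_bot] at h2; omega
  · rintro rfl; rw [finrank_top, Module.finrank_fintype_fun_eq_card] at h2; omega
  · rintro ⟨hq3, U, hU, -, hplus, rfl | ⟨-, hUW⟩⟩
    · exact hq.elim (fun h => h hplus) (fun h => by omega)
    · omega

/-- Non-degenerate four-spaces. -/
theorem four_maximal (hQ : IsNondegenerateQuadraticForm Q) (hn : 10 ≤ Fintype.card ι)
    {W : Submodule F (ι → F)} (h4 : finrank F W = 4)
    (hW : IsNondegenerateOn (QuadraticMap.polar Q) W) :
    IsMaximalIn (omegaGL Q) (subspaceStabilizer W ⊓ omegaGL Q) := by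
  refine GeoClasses.omegaGL_nondeg_maximal hQ hn ?_ ?_ hW (Or.inl (by omega)) ?_
  · rintro rfl; rw [finrank_bot] at h4; omega
  · rintro rfl; rw [finrank_top, Module.finrank_fintype_fun_eq_card] at h4; omega
  · rintro ⟨-, U, hU, -, -, rfl | ⟨-, hUW⟩⟩ <;> omega

/-- Non-singular points in characteristic two. -/
theorem point_maximal (hQ : IsNondegenerateQuadraticForm Q) (hn : 10 ≤ Fintype.card ι)
    (hchar : ¬ Odd (Fintype.card F)) {v : ι → F} (hv : Q v ≠ 0) :
    IsMaximalIn (omegaGL Q) (subspaceStabilizer (Submodule.span F {v}) ⊓ omegaGL Q) :=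
  GeoClasses.omegaGL_point_maximal hQ (by
    by_contra h
    exact hchar (GeoClasses.two_ne_zero_iff_odd_card.1 h)) hn hv

/-- Frames over prime fields. -/
theorem frame_maximal (hQ : IsNondegenerateQuadraticForm Q) (hn : 10 ≤ Fintype.card ι)
    (hp : (Fintype.card F).Prime) (hodd : Odd (Fintype.card F)) {t : ℕ}
    {D : Fin t → Submodule F (ι → F)} (hD : IsOrthogonalMDecomposition Q 1 D) :
    IsMaximalIn (omegaGL Q) (decompositionStabilizer D ⊓ omegaGL Q) :=
  DecompMax.OF.frame_maximal (Classical.two_ne_zero_of_odd (by rwa [Nat.card_eq_fintype_card]))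
    (by rwa [Nat.card_eq_fintype_card]) hQ (by omega) (fun _ => hn) hD

/-- Scaling a non-degenerate quadratic form. -/
theorem nondegenerate_const_mul (hQ : IsNondegenerateQuadraticForm Q) {ζ : F} (hζ : ζ ≠ 0) :
    IsNondegenerateQuadraticForm (fun v : ι → F => ζ * Q v) := by
  have hp : ∀ x y : ι → F, QuadraticMap.polar (fun v : ι → F => ζ * Q v) x y =
      ζ * QuadraticMap.polar Q x y := fun x y => by simp only [QuadraticMap.polar]; ring
  refine ⟨fun c v => ?_, ⟨fun x y z => ?_, fun c x y => ?_, fun x y z => ?_, fun c x y => ?_⟩,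
    fun x hx => ?_⟩
  · show ζ * Q (c • v) = c ^ 2 * (ζ * Q v)
    rw [hQ.smul]; ring
  · rw [hp, hp, hp, hQ.polar_bilinear.add_left]; ring
  · rw [hp, hp, hQ.polar_bilinear.smul_left]; ring
  · rw [hp, hp, hp, hQ.polar_bilinear.add_right]; ring
  · rw [hp, hp, hQ.polar_bilinear.smul_right]; ring
  · obtain ⟨⟨y, hy⟩, ⟨z, hz⟩⟩ := hQ.nondegenerate x hx
    exact ⟨⟨y, by rw [hp]; exact mul_ne_zero hζ hy⟩, ⟨z, by rw [hp]; exact mul_ne_zero hζ hz⟩⟩

/-- Members of plus type of an orthogonal decomposition give plus type for the whole space. -/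
theorem not_plus_members (hQ : IsNondegenerateQuadraticForm Q) {t k : ℕ}
    {D : Fin t → Submodule F (ι → F)} (hD : IsOrthogonalMDecomposition Q k D)
    (hV : ¬ IsPlusTypeOn Q ⊤) (i₀ : Fin t) : ¬ IsPlusTypeOn Q (D i₀) := by
  classical
  intro hi
  obtain ⟨C⟩ := DecompMax.exists_components hD.decomp.decomp
  choose U hU hts hdim using fun i => DecompMax.isPlusTypeOn_of_isometric (hD.isometric i₀ i) hi
  set R := GeoClasses.toQF hQ with hR
  let L : (Π i, U i) →ₗ[F] (ι → F) := ∑ i, (U i).subtype.comp (LinearMap.proj i)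
  have hL : ∀ x, L x = ∑ i, (x i : ι → F) := fun x => by simp [L]
  have hproj : ∀ x j, C.proj j (L x) = (x j : ι → F) := fun x j => by
    rw [hL, map_sum, Finset.sum_eq_single j (fun i _ hij => C.of_mem_ne hij (hU i (x i).2)) (by simp),
      C.of_mem (hU j (x j).2)]
  have hinj : Function.Injective L := fun x y h => funext fun j => Subtype.ext (by
    rw [← hproj x j, h, hproj])
  refine hV ⟨LinearMap.range L, le_top, ?_, ?_⟩
  · rintro v ⟨x, rfl⟩
    show Q (L x) = 0
    have key : ∀ S : Finset (Fin t), R (∑ i ∈ S, (x i : ι → F)) = 0 := by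
      intro S
      induction S using Finset.induction with
      | empty => simp
      | insert i S hiS ih =>
        rw [Finset.sum_insert hiS, Classical.qf_add, ih, show R (x i : ι → F) = 0 from hts i _ (x i).2]
        have : QuadraticMap.polar R (x i : ι → F) (∑ j ∈ S, (x j : ι → F)) = 0 := by
          rw [← QuadraticMap.polarBilin_apply_apply, map_sum]
          exact Finset.sum_eq_zero fun j hj => hD.decomp.orthogonal i j (fun e => hiS (e ▸ hj)) _
            (hU i (x i).2) _ (hU j (x j).2)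
        rw [this]; simp
    rw [hL]
    exact key Finset.univ
  · rw [LinearMap.finrank_range_of_inj hinj, Module.finrank_pi_fintype, finrank_top, Finset.mul_sum,
      Finset.sum_congr rfl fun i _ => (hdim i).trans (hD.decomp.decomp.finrank_eq i)]
    obtain ⟨b, -⟩ := ClassicalMax.exists_adapted_basis hD.decomp.decomp
    have := Module.finrank_eq_card_basis b
    rw [Fintype.card_prod, Fintype.card_fin, Fintype.card_fin] at this
    rw [this, Finset.sum_const, Finset.card_univ, Fintype.card_fin, smul_eq_mul]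
    ring

end Cfsg.Agent.GeoLists
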